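import Cfsg.Agent.H565.NoMinTor

/-!
# `t`-elements acting on `s`-subgroups, `s ^ 2` not dividing the order of the Weyl group (helper574)

* `dvd_of_abelian_index` : a nonabelian `MinD s t y B` with an abelian subgroup of index at most `s`: `t ∣ s ^ 2 - 1`;
* `exists_toral_index` : `q ^ (e + 1) ∤ |W|`: a finite `q`-subgroup of `D.group k` has a toral subgroup of index
  dividing `q ^ e`;
* `noMin_of_sq` : `s ^ 2 ∤ |W|`, `Tors`, `t ∤ |W|`, `t ∤ s ^ 2 - 1`: `NoMin s t G` for finite `G ≤ D.group k`;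
* `noMin_E6` (`5 ≤ s < t`), `noMin_E7` (`5 ≤ s < t`, `t ≠ 7`), `noMin_E8` (`7 ≤ s < t`).
-/

set_option autoImplicit false
set_option linter.unusedSectionVars false

namespace Cfsg.Agent.H574.NoMinSq

section Group

open Subgroup Cfsg.Agent.H167.OP Cfsg.Agent.H565.NM

variable {G : Type*} [Group G] [Finite G] {s t : ℕ} {y : G} {B : Subgroup G}

theorem map_conj_eq (hn : Nrm y B) : B.map (MulAut.conj y).toMonoidHom = B :=
  mem_normalizer_iff_map_conj_eq.1 (mem_normalizer_of_nrm hn)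

/-- **An abelian subgroup of index at most `s`.** -/
theorem dvd_of_abelian_index (h : MinD s t y B) (hnab : ¬ ∀ a ∈ B, ∀ b ∈ B, a * b = b * a) {A : Subgroup G}
    (hA : A ≤ B) (hab : ∀ a ∈ A, ∀ b ∈ A, a * b = b * a) (hidx : A.relIndex B ∣ s) : t ∣ s ^ 2 - 1 := by
  classical
  have hs := h.hs
  have ht := h.ht
  have hfs : Fact s.Prime := ⟨h.hs⟩
  have hP := h.isPGroup
  obtain ⟨K, hKD, hcy, hp, hcm, hK⟩ := exists_frat h
  set Z : Subgroup G := B ⊓ centralizer (B : Set G) with hZ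
  have hZB : Z ≤ B := inf_le_left
  have hZc : ∀ z ∈ Z, ∀ d ∈ B, z * d = d * z := fun z hz d hd => (mem_centralizer_iff.1 hz.2 d hd).symm
  have hKZ : K ≤ Z := fun k hk => ⟨hKD.le hk, mem_centralizer_iff.2 fun d hd => (hK k hk d hd).symm⟩
  have hZne : Z ≠ B := by
    intro h1
    apply hnab
    intro a ha b hb
    exact hZc a (h1 ▸ ha) b hb
  have hZn : Nrm y Z := by
    rintro z hz
    push Not at hnab
    obtain ⟨a, ha, b₀, hb₀, hab₀⟩ := hnab
    have hy : y * z = z * y := h.cen_center ⟨a, ha, b₀, hb₀, hab₀⟩ hz.1 (hZc z hz)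
    rw [hy, mul_inv_cancel_right]
    exact hz
  have hcmZ : ∀ a ∈ B, ∀ b ∈ B, a * b * a⁻¹ * b⁻¹ ∈ Z := fun a ha b hb => hKZ (hcm a ha b hb)
  have h3 := h.relIndex_modEq (X := Z) hZn hcmZ
  -- invariant proper subgroups lie in `Z`
  have hinv : ∀ E : Subgroup G, E ≤ B → E ≠ B → Nrm y E → E ≤ Z := by
    intro E hE hne hn d hd
    have hc : Cen y E := (h.hmin E hE hn).resolve_left hne
    refine h.mem_of_comm_mem hZn hcmZ (hE hd) ?_
    rw [hc d hd]
    have e : d * y * y⁻¹ * d⁻¹ = 1 := by group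
    rw [e]
    exact one_mem _
  have hAne : A ≠ B := by
    rintro rfl
    exact hnab hab
  have hidx1 : A.relIndex B ≠ 1 := fun h1 => hAne (le_antisymm hA (relIndex_eq_one.1 h1))
  have hidxs : A.relIndex B = s := (hs.eq_one_or_self_of_dvd _ hidx).resolve_left hidx1
  -- the index of `Z` divides `s ^ 2`
  have hle : Z.relIndex B ≤ s ^ 2 := by
    by_cases hnA : Nrm y A
    · have h1 := hinv A hA hAne hnA
      have h2 : Z.relIndex B ∣ A.relIndex B := relIndex_dvd_of_le_left B h1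
      rw [hidxs] at h2
      exact (Nat.le_of_dvd hs.pos h2).trans (Nat.le_self_pow two_ne_zero s)
    · set φ := (MulAut.conj y).toMonoidHom with hφ
      have hφi : Function.Injective φ := (MulAut.conj y).injective
      set A' := A.map φ with hA'
      have hBm : B.map φ = B := map_conj_eq h.nrm
      have hA'B : A' ≤ B := by
        rw [← hBm]
        exact map_mono hA
      have hidx' : A'.relIndex B = s := by
        have e : (A.map φ).relIndex (B.map φ) = A.relIndex B := relIndex_map_map_of_injective A B hφi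
        rw [hBm] at e
        rw [hA', e, hidxs]
      have hsup : A ⊔ A' = B := by
        have h1 : A ⊔ A' ≤ B := sup_le hA hA'B
        have h2 : A.relIndex (A ⊔ A') * (A ⊔ A').relIndex B = s := by
          rw [relIndex_mul_relIndex A (A ⊔ A') B le_sup_left h1, hidxs]
        rcases hs.eq_one_or_self_of_dvd _ (Dvd.intro _ h2) with h4 | h4
        · exfalso
          apply hnA
          intro d hd
          have h5 : A ⊔ A' ≤ A := relIndex_eq_one.1 h4
          exact h5 (mem_sup_right ⟨d, hd, rfl⟩)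
        · rw [h4] at h2
          have h5 : (A ⊔ A').relIndex B = 1 := Nat.eq_of_mul_eq_mul_left hs.pos (by rw [h2, mul_one])
          exact le_antisymm h1 (relIndex_eq_one.1 h5)
      have hab' : ∀ a ∈ A', ∀ b ∈ A', a * b = b * a := by
        rintro _ ⟨a, ha, rfl⟩ _ ⟨b, hb, rfl⟩
        rw [← map_mul, ← map_mul, hab a ha b hb]
      have hinf : A ⊓ A' ≤ Z := by
        intro z hz
        refine ⟨hA hz.1, ?_⟩
        have h1 : A ⊔ A' ≤ centralizer ({z} : Set G) := by
          refine sup_le (fun a ha => ?_) (fun a ha => ?_)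
          · exact mem_centralizer_singleton_iff.2 (hab a ha z hz.1)
          · exact mem_centralizer_singleton_iff.2 (hab' a ha z hz.2)
        refine mem_centralizer_iff.2 fun d hd => ?_
        have hd' : d ∈ A ⊔ A' := by rw [hsup]; exact hd
        exact mem_centralizer_singleton_iff.1 (h1 hd')
      calc Z.relIndex B ≤ (A ⊓ A').relIndex B := by
            refine Nat.le_of_dvd (Nat.pos_of_ne_zero ?_) (relIndex_dvd_of_le_left B hinf)
            exact index_ne_zero_of_finite (H := (A ⊓ A').subgroupOf B)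
        _ ≤ A.relIndex B * A'.relIndex B := relIndex_inf_le
        _ = s ^ 2 := by rw [hidxs, hidx', pow_two]
  obtain ⟨m, hm⟩ : ∃ m, Z.relIndex B = s ^ m := hP.index (Z.subgroupOf B)
  rw [hm] at h3 hle
  have hm2 : m ≤ 2 := (Nat.pow_le_pow_iff_right hs.one_lt).1 hle
  have hm0 : m ≠ 0 := by
    rintro rfl
    rw [pow_zero, relIndex_eq_one] at hm
    exact hZne (le_antisymm hZB hm)
  have h4 : t ∣ s ^ m - 1 := (Nat.modEq_iff_dvd' (Nat.one_le_pow _ _ hs.pos)).1 h3.symm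
  have hm3 : m = 1 ∨ m = 2 := by omega
  rcases hm3 with rfl | rfl
  · rw [pow_one] at h4
    exact h4.trans (by simpa using Nat.sub_dvd_pow_sub_pow s 1 2)
  · exact h4

/-- a `p`-group acting on a set of cardinality not divisible by `p ^ (e + 1)` -/
theorem exists_stabilizer_index {Q X : Type*} [Group Q] [Finite Q] [Finite X] [MulAction Q X] {p e : ℕ}
    (hp : p.Prime) (hQ : IsPGroup p Q) (hX : ¬ p ^ (e + 1) ∣ Nat.card X) :
    ∃ x : X, (MulAction.stabilizer Q x).index ∣ p ^ e := by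
  classical
  have hfp : Fact p.Prime := ⟨hp⟩
  by_contra hcon
  push Not at hcon
  apply hX
  have := Fintype.ofFinite X
  have h1 := Nat.card_congr (MulAction.selfEquivSigmaOrbits Q X)
  have : Fintype (MulAction.orbitRel.Quotient Q X) := Fintype.ofFinite _
  rw [h1, Nat.card_sigma]
  refine Finset.dvd_sum fun ω _ => ?_
  obtain ⟨n, hn⟩ := hQ.index (MulAction.stabilizer Q ω.out)
  have h2 : Nat.card ↥(MulAction.orbit Q ω.out) = (MulAction.stabilizer Q ω.out).index := by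
    rw [MulAction.index_stabilizer]
    rfl
  have h3 := hcon ω.out
  rw [hn] at h3
  have h4 : e < n := by
    by_contra h5
    exact h3 (pow_dvd_pow p (not_lt.1 h5))
  rw [h2, hn]
  exact pow_dvd_pow p h4

end Group

section Lie

open CoxeterSystem Cfsg Cfsg.Lie Cfsg.Lie.ChevalleyDatum
open Cfsg.Agent.ChevalleyStructure Cfsg.Agent.ChevalleyStructure.Elts Cfsg.Agent.ChevalleyStructure.CoxeterGeom
  Cfsg.Agent.ChevalleyStructure.CoxeterGeomTypes Cfsg.Agent.ChevalleyStructure.NPerm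
open Cfsg.Agent.Tits.Roots Cfsg.Agent.Tits.Core Cfsg.Agent.Nodes Cfsg.Agent.Nodes.Reps Cfsg.Agent.Nodes.BNOf
  Cfsg.Agent.Nodes.RGDChev Cfsg.Agent.Nodes.Bruhat Cfsg.Agent.Nodes.OppDec
open Cfsg.Agent.KFacts.RgdField Cfsg.Agent.KFacts.RgdChevCoord Cfsg.Agent.BpExc.TorCent Cfsg.Agent.BpExc.TorChev
open Cfsg.Agent.CpAut.RgdFix Cfsg.Agent.CpAut.RgdSub Cfsg.Agent.KFacts.RgdDiag
open Cfsg.Agent.GpExc.Field Cfsg.Agent.BpExc.Tow Cfsg.Agent.BpExc.TowChev Cfsg.Agent.BpExc.TorAll
  Cfsg.Agent.BpExc.FamUntw Cfsg.Agent.BpExc.FamInst Cfsg.Agent.BpExc.LangFr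
open Cfsg.Agent.CpAut.RgdUntw
open Cfsg.Agent.H795.SetCent Cfsg.Agent.H795.SetTor Cfsg.Agent.H795.TorCnt Cfsg.Agent.H795.TorSub
open Cfsg.Agent.H167.OP Cfsg.Agent.H565.NM

universe u

variable {D : ChevalleyDatum} {l : ℕ} {M : CoxeterMatrix (Fin l)} (hp : IsType D l M)
  (r : ℕ) [Fact r.Prime] {k : Type u} [Field k] [IsAlgClosed k] [CharP k r]

include hp in
/-- **toral subgroups of small index** -/
theorem exists_toral_index (hk : LocFin k) {q e : ℕ} (hq : q.Prime) (hqr : q ≠ r)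
    (hW : ¬ q ^ (e + 1) ∣ Nat.card M.Group) {Q : Subgroup ↥(D.group k)} [Finite ↥Q] (hQ : IsPGroup q ↥Q) :
    ∃ A : Subgroup ↥(D.group k), A ≤ Q ∧ A.relIndex Q ∣ q ^ e ∧ ∃ g : ↥(D.group k), ∀ x ∈ A, g * x * g⁻¹ ∈ TT D k := by
  classical
  have hr : r.Prime := Fact.out
  have hfq : Fact q.Prime := ⟨hq⟩
  have hWf := finite_W hp (M.toCoxeterSystem)
  obtain ⟨N, hN, hdN, hS, -⟩ := exists_level_EE hp r hk (Set.toFinite (Q : Set ↥(D.group k)))
    Set.finite_empty (Set.empty_subset _) (Nat.totient_pos.2 (pow_pos hq.pos (e + 1)))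
  have hcop : r.Coprime (q ^ (e + 1)) := Nat.Coprime.pow_right _ ((Nat.coprime_primes hr hq).2 (Ne.symm hqr))
  have hN1 : r ^ N ≡ 1 [MOD q ^ (e + 1)] := by
    obtain ⟨d, rfl⟩ := hdN
    rw [pow_mul]
    have := (Nat.ModEq.pow_totient hcop).pow d
    rwa [one_pow] at this
  have hfinN : Finite ↥(EE r N : Subfield k) := finite_EE r hN
  have : CharP ↥(EE r N : Subfield k) r := charP_fixF r _
  have hGfin : Finite ↥(D.group ↥(EE r N : Subfield k)) := finite_group
  have R := rgd (K := ↥(EE r N : Subfield k)) hp M.toCoxeterSystem r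
  have hG := GG_top (K := ↥(EE r N : Subfield k)) hp M.toCoxeterSystem
  set f := emb hp.inList (EE r N : Subfield k).subtype with hf
  have hinj : Function.Injective f := emb_injective hp.inList _
  have hQ' : IsPGroup q ↥(Q.comap f) := hQ.comap_of_injective f hinj
  -- the chambers
  have h1 := card_sylowZ_modEq R hG (B := ∅) (fun β hβ => absurd hβ (Set.notMem_empty β)) (k := q ^ (e + 1)) (fun a ha => by
    have h2 : (FB (∅ : Set (MulAut ↥(D.group ↥(EE r N : Subfield k))))) = ⊤ := by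
      rw [eq_top_iff]
      intro y _ β hβ
      exact absurd hβ (Set.notMem_empty β)
    rw [h2, inf_top_eq, card_XX hp r M.toCoxeterSystem ha, card_EE r hN]
    exact hN1)
  have h2 : Nat.card {S : Sylow r ↥(D.group ↥(EE r N : Subfield k)) // ∀ β ∈ (∅ : Set (MulAut ↥(D.group ↥(EE r N : Subfield k)))), β • S = S} =
      Nat.card (Sylow r ↥(D.group ↥(EE r N : Subfield k))) :=
    Nat.card_congr ⟨fun S => S.1, fun S => ⟨S, fun β hβ => absurd hβ (Set.notMem_empty β)⟩, fun _ => rfl, fun _ => rfl⟩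
  rw [h2] at h1
  have h3 : ¬ q ^ (e + 1) ∣ Nat.card (Sylow r ↥(D.group ↥(EE r N : Subfield k))) := by
    intro hd
    exact hW (Nat.modEq_zero_iff_dvd.1 (h1.symm.trans (Nat.modEq_zero_iff_dvd.2 hd)))
  obtain ⟨S, hSi⟩ := exists_stabilizer_index hq hQ' h3
  set A₀ : Subgroup ↥(D.group ↥(EE r N : Subfield k)) := (MulAction.stabilizer ↥(Q.comap f) S).map (Q.comap f).subtype
    with hA₀
  have hA₀le : A₀ ≤ Q.comap f := by
    rintro _ ⟨x, -, rfl⟩
    exact x.2
  have hA₀S : ∀ x ∈ A₀, x • S = S := by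
    rintro _ ⟨x, hx, rfl⟩
    exact hx
  obtain ⟨g, hg⟩ := exists_conj_le_T R hG hq hqr (hQ'.to_le hA₀le) (S := S) (fun x hx => hA₀S x hx)
  have hQm : (Q.comap f).map f = Q := Subgroup.map_comap_eq_self (fun x hx => hS hx)
  refine ⟨A₀.map f, ?_, ?_, f g, ?_⟩
  · rw [← hQm]
    exact Subgroup.map_mono hA₀le
  · have e1 : (A₀.map f).relIndex ((Q.comap f).map f) = A₀.relIndex (Q.comap f) :=
      Subgroup.relIndex_map_map_of_injective _ _ hinj
    rw [hQm] at e1
    rw [e1]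
    have e2 : A₀.relIndex (Q.comap f) = (MulAction.stabilizer ↥(Q.comap f) S).index := by
      rw [Subgroup.relIndex, hA₀]
      congr 1
      ext x
      rw [Subgroup.mem_subgroupOf]
      constructor
      · rintro ⟨z, hz, e⟩
        rwa [← Subtype.ext e]
      · exact fun hx => ⟨x, hx, rfl⟩
    rw [e2]
    exact hSi
  · rintro _ ⟨x, hx, rfl⟩
    rw [← map_mul, ← map_inv, ← map_mul]
    exact emb_T hp _ ⟨_, hg x hx, rfl⟩

include hp in
/-- **`s ^ 2`, `t` do not divide `|W|`, `t` does not divide `s ^ 2 - 1`.** -/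
theorem noMin_of_sq (hk : LocFin k) {G : Type*} [Group G] [Finite G] {f : G →* ↥(D.group k)}
    (hf : Function.Injective f) {s t : ℕ} (hsr : s ≠ r) (hs : ¬ s ^ 2 ∣ Nat.card M.Group)
    (hT : Tors M.toCoxeterSystem hp.isCartan s) (ht : ¬ t ∣ Nat.card M.Group) (h1 : ¬ t ∣ s ^ 2 - 1) :
    NoMin s t G := by
  intro y B h
  have hfs : Fact s.Prime := ⟨h.hs⟩
  have hnab := not_comm_of_minD hp r hk hf hsr hs hT ht h
  have hfin : Finite ↥(B.map f) :=
    Finite.of_surjective (fun u : B => (⟨f u, ⟨u, u.2, rfl⟩⟩ : ↥(B.map f))) (by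
      rintro ⟨_, ⟨u, hu, rfl⟩⟩
      exact ⟨⟨u, hu⟩, rfl⟩)
  obtain ⟨A, hAB, hidx, g, hg⟩ := exists_toral_index hp r hk (e := 1) h.hs hsr hs (Q := B.map f) (h.isPGroup.map f)
  rw [pow_one] at hidx
  have hcomm := TT_comm hp (K := k)
  have hAab : ∀ a ∈ A, ∀ b ∈ A, a * b = b * a := by
    intro a ha b hb
    have h2 := hcomm _ (hg a ha) _ (hg b hb)
    have h3 : g * (a * b) * g⁻¹ = g * (b * a) * g⁻¹ := by
      calc g * (a * b) * g⁻¹ = (g * a * g⁻¹) * (g * b * g⁻¹) := by group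
        _ = (g * b * g⁻¹) * (g * a * g⁻¹) := h2
        _ = _ := by group
    exact mul_left_cancel (mul_right_cancel h3)
  have hcA : (A.comap f).map f = A := by
    rw [Subgroup.map_comap_eq_self]
    exact hAB.trans (Subgroup.map_le_range f B)
  have hcle : A.comap f ≤ B := by
    intro x hx
    obtain ⟨b, hb, e⟩ := hAB hx
    rwa [← hf e]
  refine h1 (dvd_of_abelian_index h hnab hcle (fun a ha b hb => ?_) ?_)
  · apply hf
    rw [map_mul, map_mul]
    exact hAab _ ha _ hb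
  · have e1 : ((A.comap f).map f).relIndex (B.map f) = (A.comap f).relIndex B :=
      Subgroup.relIndex_map_map_of_injective _ _ hf
    rw [hcA] at e1
    rwa [← e1]

theorem not_dvd_sq_sub_one {s t : ℕ} (hs : s.Prime) (ht : t.Prime) (hs2 : 2 < s) (hst : s < t) : ¬ t ∣ s ^ 2 - 1 := by
  intro h
  have e : s ^ 2 - 1 = (s - 1) * (s + 1) := by
    obtain ⟨a, rfl⟩ : ∃ a, s = a + 1 := ⟨s - 1, by omega⟩
    rw [Nat.add_sub_cancel]
    have : (a + 1) ^ 2 = a * (a + 1 + 1) + 1 := by ring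
    rw [this, Nat.add_sub_cancel]
  rw [e] at h
  rcases ht.dvd_mul.1 h with h1 | h1
  · have := Nat.le_of_dvd (by omega) h1
    omega
  · have h2 := Nat.le_of_dvd (by omega) h1
    have h3 : t = s + 1 := by omega
    have h4 := hs.eq_two_or_odd'
    have h5 := ht.eq_two_or_odd'
    rcases h4 with h4 | ⟨a, ha⟩
    · omega
    · rcases h5 with h5 | ⟨b, hb⟩
      · omega
      · omega

/-- **`E₆` (any finite subgroup of `E₆(k)`, so also `²E₆(q)`), `5 ≤ s < t`.** -/
theorem noMin_E6 (hk : LocFin k) {G : Type*} [Group G] [Finite G] {f : G →* ↥(chevE6.group k)}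
    (hf : Function.Injective f) {s t : ℕ} (hsr : s ≠ r) (h5 : 5 ≤ s) (hst : s < t) : NoMin s t G := by
  intro y B h
  have hp : IsType chevE6 6 CoxeterMatrix.E₆ := Cfsg.Agent.BpExc.RowsUntw.e6T
  obtain ⟨h1, h2⟩ := Cfsg.Agent.H795.RowsA.torsE6 hp h.hs h5
  refine noMin_of_sq hp r hk hf hsr h1 h2 (fun h3 => ?_) (not_dvd_sq_sub_one h.hs h.ht (by omega) hst) y B h
  rw [Cfsg.Agent.H795.RowsA.card_E6] at h3
  have := Cfsg.Agent.H795.RowsA.dvd_51840 h.ht (by omega) h3
  omega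

/-- **`E₇`, `5 ≤ s < t`, `t ≠ 7`.** -/
theorem noMin_E7 (hk : LocFin k) {G : Type*} [Group G] [Finite G] {f : G →* ↥(chevE7.group k)}
    (hf : Function.Injective f) {s t : ℕ} (hsr : s ≠ r) (h5 : 5 ≤ s) (hst : s < t) (h7 : t ≠ 7) : NoMin s t G := by
  intro y B h
  have hp : IsType chevE7 7 CoxeterMatrix.E₇ := Cfsg.Agent.BpExc.RowsUntw.e7T
  obtain ⟨h1, h2⟩ := Cfsg.Agent.H795.RowsA.torsE7 hp h.hs h5
  refine noMin_of_sq hp r hk hf hsr h1 h2 (fun h3 => ?_) (not_dvd_sq_sub_one h.hs h.ht (by omega) hst) y B h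
  rw [Cfsg.Agent.H795.RowsA.card_E7] at h3
  rcases Cfsg.Agent.H795.RowsA.dvd_2903040 h.ht (by omega) h3 with h4 | h4
  · omega
  · exact h7 h4

/-- **`E₈`, `7 ≤ s < t`.** -/
theorem noMin_E8 (hk : LocFin k) {G : Type*} [Group G] [Finite G] {f : G →* ↥(chevE8.group k)}
    (hf : Function.Injective f) {s t : ℕ} (hsr : s ≠ r) (h7 : 7 ≤ s) (hst : s < t) : NoMin s t G := by
  intro y B h
  have hp : IsType chevE8 8 CoxeterMatrix.E₈ := Cfsg.Agent.BpExc.RowsUntw.e8T
  obtain ⟨h1, h2⟩ := Cfsg.Agent.H795.RowsA.torsE8 hp h.hs (by omega) (by omega)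
  refine noMin_of_sq hp r hk hf hsr h1 h2 (fun h3 => ?_) (not_dvd_sq_sub_one h.hs h.ht (by omega) hst) y B h
  rw [Cfsg.Agent.H795.RowsA.card_E8] at h3
  rcases Cfsg.Agent.H795.RowsA.dvd_696729600 h.ht (by omega) h3 with h4 | h4 <;> omega

end Lie

end Cfsg.Agent.H574.NoMinSq
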